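import Mathlib
import Cfsg.Agent.Lib.Forms.Bridge
import Cfsg.Agent.Lib.Classical.Count
import Cfsg.Agent.Lib.Unitary.Order

/-!
# Counting totally singular subspaces by the orbit-stabiliser theorem.
-/

set_option autoImplicit false

namespace H30

open Module H28

variable {F V : Type*} [Field F] [AddCommGroup V] [Module F V] {σ : F →+* F}

theorem card_eq_mul_of_fiber {A T : Type*} [Finite A] [Finite T] (f : A → T) (c : ℕ)
    (h : ∀ t, Nat.card {a // f a = t} = c) : Nat.card A = Nat.card T * c := by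
  classical
  have := Fintype.ofFinite T
  rw [← Nat.card_congr (Equiv.sigmaFiberEquiv f), Nat.card_sigma]
  simp [h]

/-- The number of totally singular `k`-subspaces times the order of the stabiliser of one of them
is the order of the isometry group. -/
theorem card_totSing_mul [FiniteDimensional F V] (P : PQ F V σ) (hP : P.B.SeparatingLeft)
    {W : Submodule F V} (hW : P.TotSing W) :
    Nat.card P.Isom = Nat.card {U : Submodule F V | finrank F U = finrank F W ∧ P.TotSing U} *
      Nat.card ↥(P.Isom ⊓ stabSet F (W : Set V)) := by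
  refine H11.card_eq_card_image_mul P.Isom _ inf_le_left
    (fun g : V ≃ₗ[F] V => W.map (g : V →ₗ[F] V)) ?_ _ ?_
  · intro a ha b hb
    rw [Subgroup.mem_inf, mem_stabSet_iff_map]
    have e : ((a⁻¹ * b : V ≃ₗ[F] V) : V →ₗ[F] V) = (a.symm : V →ₗ[F] V) ∘ₗ (b : V →ₗ[F] V) := rfl
    rw [e, Submodule.map_comp]
    constructor
    · intro h
      refine ⟨P.Isom.mul_mem (P.Isom.inv_mem ha) hb, ?_⟩
      rw [← h, ← Submodule.map_comp]
      simp
    · rintro ⟨-, h⟩
      have := congrArg (Submodule.map (a : V →ₗ[F] V)) h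
      rw [← Submodule.map_comp, ← Submodule.map_comp] at this
      simpa using this.symm
  · intro U
    constructor
    · rintro ⟨h1, h2⟩
      obtain ⟨g, hg, h⟩ := hW.exists_isom_map_eq hP h2 h1.symm
      exact ⟨g, hg, h⟩
    · rintro ⟨g, hg, rfl⟩
      exact ⟨LinearEquiv.finrank_map_eq g W, hW.map hg⟩

/-- The count of totally isotropic `k`-subspaces of the standard unitary space, in multiplied-out
form. -/
theorem card_isotropic_gu [Fintype F] {q : ℕ} (hF : Fintype.card F = q ^ 2) (n k : ℕ)
    (W : Submodule F (Fin n → F)) (hWk : finrank F W = k)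
    (hW : ∀ u ∈ W, ∀ v ∈ W, Cfsg.hermForm n F q u v = 0) :
    Nat.card (Cfsg.GU n F q) =
      Nat.card {U : Submodule F (Fin n → F) // finrank F U = k ∧
        ∀ u ∈ U, ∀ v ∈ U, Cfsg.hermForm n F q u v = 0} *
      ((∏ i : Fin k, ((q ^ 2) ^ k - (q ^ 2) ^ (i : ℕ))) *
        ((q ^ 2) ^ ((n - 2 * k) * k + k * (k - 1) / 2) * q ^ k *
          Nat.card (Cfsg.GU (n - 2 * k) F q))) := by
  obtain ⟨σ, hq, hne, hσ⟩ := exists_conj hF
  obtain ⟨c, hc⟩ := exists_trace_one hne hσ
  have hsep : (guPQ n hσ c hc).B.SeparatingLeft := hermB_sep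
  have hiff : ∀ U : Submodule F (Fin n → F), (guPQ n hσ c hc).TotSing U ↔
      ∀ u ∈ U, ∀ v ∈ U, Cfsg.hermForm n F q u v = 0 := by
    intro U
    constructor
    · intro h u hu v hv
      rw [← hermB_eq_hermForm hq]
      exact h.2 v hv u hu
    · intro h
      have h2 : ∀ x ∈ U, ∀ y ∈ U, (guPQ n hσ c hc).B x y = 0 := fun x hx y hy => by
        change hermB n σ x y = 0
        rw [hermB_eq_hermForm hq]
        exact h y hy x hx
      exact ⟨fun x hx => PQ.ofHerm_q_mem.mpr (h2 x hx x hx), h2⟩
  have hts := (hiff W).mpr hW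
  have h1 := card_totSing_mul _ hsep hts
  obtain ⟨e, f, hef, rfl⟩ := hts.exists_hyp hsep hWk
  have hdim := (guPQ n hσ c hc).finrank_perp_hyp hsep hef
  have hV : finrank F (Fin n → F) = n := by simp
  obtain ⟨φ⟩ := nonempty_isom_equiv_gu (n := n - 2 * k) hq hne _ rfl rfl
    (hef.nondeg.perp hsep).separatingLeft (by omega)
  have hΛ : Nat.card (guPQ n hσ c hc).Λ = q := by
    have := card_traceZero_sq hne hσ
    rw [Nat.card_eq_fintype_card (α := F), hF] at this
    exact Nat.pow_left_injective (by norm_num) this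
  rw [PQ.card_stab_totSing _ hsep hef, Nat.card_congr φ.toEquiv, hΛ, hV, hWk,
    Nat.card_eq_fintype_card (α := F), hF, ← Nat.card_congr (guEquiv hq hσ c hc).toEquiv] at h1
  rw [h1]
  congr 1
  exact Nat.card_congr (Equiv.subtypeEquivRight fun U => by
    simp only [Set.mem_setOf_eq, hiff])

/-- The span of two orthogonal isotropic vectors is totally isotropic. -/
theorem isotropic_span_pair [Fintype F] {q n : ℕ} [H11.U.IsSq F q] {u v : Fin n → F}
    (hu : Cfsg.hermForm n F q u u = 0) (hv : Cfsg.hermForm n F q v v = 0)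
    (huv : Cfsg.hermForm n F q u v = 0) :
    ∀ x ∈ Submodule.span F (Set.range ![u, v]), ∀ y ∈ Submodule.span F (Set.range ![u, v]),
      Cfsg.hermForm n F q x y = 0 := by
  intro x hx y hy
  rw [Matrix.range_cons, Matrix.range_cons, Matrix.range_empty, Set.union_empty,
    Set.singleton_union] at hx hy
  obtain ⟨a, b, rfl⟩ := Submodule.mem_span_pair.mp hx
  obtain ⟨c, d, rfl⟩ := Submodule.mem_span_pair.mp hy
  simp only [H11.U.form_add_left, H11.U.form_add_right, H11.U.form_smul_left,
    H11.U.form_smul_right, hu, hv, huv, H11.U.form_eq_zero_symm huv, mul_zero, add_zero]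

end H30
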