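import Mathlib
import Cfsg.Agent.Lib.MatConj.Similar
import Cfsg.Agent.Lib.Sp.Order
import Cfsg.Agent.S2589

/-!
Involutions of `PSp_{2m}(q)`, `q` odd: an invariant with at most `m / 2 + 1` values that
determines the conjugacy class.
-/

set_option autoImplicit false

namespace H30

open Matrix Polynomial

section Mat

variable {F : Type*} [Field F] {n : Type*} [Fintype n] [DecidableEq n]

theorem rank_add_le' (A B : Matrix n n F) : (A + B).rank ≤ A.rank + B.rank := by
  unfold Matrix.rank
  rw [Matrix.mulVecLin_add]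
  refine le_trans (Submodule.finrank_mono (t := LinearMap.range A.mulVecLin ⊔
    LinearMap.range B.mulVecLin) ?_) (Submodule.finrank_add_le_finrank_add_finrank _ _)
  rintro _ ⟨v, rfl⟩
  exact Submodule.add_mem_sup ⟨v, rfl⟩ ⟨v, rfl⟩

theorem rank_smul' {c : F} (hc : c ≠ 0) (A : Matrix n n F) : (c • A).rank = A.rank :=
  Matrix.rank_smul_of_mem_nonZeroDivisors A (mem_nonZeroDivisors_of_ne_zero hc)

theorem rank_neg' (A : Matrix n n F) : (-A).rank = A.rank := by
  rw [← neg_one_smul F A, rank_smul' (neg_ne_zero.mpr one_ne_zero)]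

theorem sub_mul_add_of_sq {A : Matrix n n F} {s : F} (hA : A * A = s • (1 : Matrix n n F))
    (c : F) : (A - c • (1 : Matrix n n F)) * (A + c • (1 : Matrix n n F)) =
      (s - c * c) • (1 : Matrix n n F) := by
  simp only [Matrix.sub_mul, Matrix.mul_add, hA, Matrix.mul_smul, Matrix.smul_mul, Matrix.mul_one,
    Matrix.one_mul]
  module

theorem rank_sub_add_rank_add {A : Matrix n n F} {c : F} (h2 : (2 : F) ≠ 0) (hc : c ≠ 0)
    (hA : A * A = (c * c) • (1 : Matrix n n F)) :
    (A - c • (1 : Matrix n n F)).rank + (A + c • (1 : Matrix n n F)).rank = Fintype.card n := by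
  apply le_antisymm
  · apply Matrix.rank_add_rank_le_card_of_mul_eq_zero
    rw [sub_mul_add_of_sq hA, sub_self, zero_smul]
  · have h := rank_add_le' (-(A - c • (1 : Matrix n n F))) (A + c • (1 : Matrix n n F))
    rw [rank_neg'] at h
    have e : -(A - c • (1 : Matrix n n F)) + (A + c • (1 : Matrix n n F)) =
        (2 * c) • (1 : Matrix n n F) := by
      rw [mul_smul, two_smul]; abel
    rw [e, rank_smul' (mul_ne_zero h2 hc), Matrix.rank_one] at h
    exact h

theorem rank_sub_of_sq_ne {A : Matrix n n F} {s c : F} (hA : A * A = s • (1 : Matrix n n F))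
    (hc : c * c ≠ s) : (A - c • (1 : Matrix n n F)).rank = Fintype.card n := by
  apply le_antisymm (Matrix.rank_le_card_width _)
  have h := Matrix.rank_mul_le_left (A - c • (1 : Matrix n n F)) (A + c • (1 : Matrix n n F))
  rw [sub_mul_add_of_sq hA, rank_smul' (sub_ne_zero.mpr hc.symm), Matrix.rank_one] at h
  exact h

theorem exists_aeval_eq_of_sq (s : F) (p : F[X]) : ∃ a b : F, ∀ A : Matrix n n F,
    A * A = s • (1 : Matrix n n F) → aeval A p = a • (1 : Matrix n n F) + b • A := by
  induction p using Polynomial.induction_on with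
  | C a => exact ⟨a, 0, fun A _ => by simp [Algebra.algebraMap_eq_smul_one]⟩
  | add p q hp hq =>
    obtain ⟨a, b, h⟩ := hp
    obtain ⟨a', b', h'⟩ := hq
    refine ⟨a + a', b + b', fun A hA => ?_⟩
    rw [map_add, h A hA, h' A hA, add_smul, add_smul]; abel
  | monomial k c hp =>
    obtain ⟨a, b, h⟩ := hp
    refine ⟨b * s, a, fun A hA => ?_⟩
    rw [pow_succ, ← mul_assoc, map_mul, h A hA, aeval_X, Matrix.add_mul, Matrix.smul_mul,
      Matrix.smul_mul, hA, Matrix.one_mul, smul_smul, add_comm]

theorem isConj_of_sq_eq {A B : Matrix n n F} {s : F} (hA : A * A = s • (1 : Matrix n n F))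
    (hB : B * B = s • (1 : Matrix n n F))
    (h : ∀ c : F, c * c = s →
      (A - c • (1 : Matrix n n F)).rank = (B - c • (1 : Matrix n n F)).rank) : IsConj A B := by
  rw [H65.isConj_iff_rank]
  intro p
  obtain ⟨a, b, hab⟩ := exists_aeval_eq_of_sq (n := n) s p
  rw [hab A hA, hab B hB]
  by_cases hb : b = 0
  · simp [hb]
  have e : ∀ M : Matrix n n F, a • (1 : Matrix n n F) + b • M =
      b • (M - (-(a / b)) • (1 : Matrix n n F)) := by
    intro M
    rw [smul_sub, smul_smul, mul_neg, mul_div_cancel₀ _ hb, neg_smul, sub_neg_eq_add, add_comm]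
  rw [e, e, rank_smul' hb, rank_smul' hb]
  by_cases hc : (-(a / b)) * (-(a / b)) = s
  · exact h _ hc
  · rw [rank_sub_of_sq_ne hA hc, rank_sub_of_sq_ne hB hc]

theorem isConj_of_sq_eq_one (h2 : (2 : F) ≠ 0) {A B : Matrix n n F} (hA : A * A = 1)
    (hB : B * B = 1) (h : (A - 1).rank = (B - 1).rank) : IsConj A B := by
  refine isConj_of_sq_eq (s := 1) (by simpa using hA) (by simpa using hB) fun c hc => ?_
  rcases mul_self_eq_one_iff.mp hc with rfl | rfl
  · simpa using h
  · have h1 := rank_sub_add_rank_add (A := A) h2 one_ne_zero (by simpa using hA)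
    have h2 := rank_sub_add_rank_add (A := B) h2 one_ne_zero (by simpa using hB)
    simp only [one_smul] at h1 h2
    simp only [neg_smul, one_smul, sub_neg_eq_add]
    omega

theorem det_eq_of_sq_eq_one (h2 : (2 : F) ≠ 0) {A : Matrix n n F} (hA : A * A = 1) :
    A.det = (-1) ^ (A - 1).rank := by
  classical
  obtain ⟨S, -, hS⟩ := Finset.exists_subset_card_eq (s := (Finset.univ : Finset n))
    (n := (A - 1).rank) (by simpa using Matrix.rank_le_card_width (A - 1))
  let D : Matrix n n F := Matrix.diagonal fun i => if i ∈ S then -1 else 1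
  have hD : D * D = 1 := by
    simp only [D, Matrix.diagonal_mul_diagonal]
    rw [← Matrix.diagonal_one]
    congr 1
    funext i
    split_ifs <;> simp
  have hr : (D - 1).rank = (A - 1).rank := by
    have : D - 1 = Matrix.diagonal fun i => if i ∈ S then (-2 : F) else 0 := by
      simp only [D]
      rw [← Matrix.diagonal_one, Matrix.diagonal_sub]
      congr 1
      funext i
      split_ifs <;> norm_num
    rw [this, Matrix.rank_diagonal, ← hS, Fintype.card_subtype]
    congr 1
    ext i
    simp [h2]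
  obtain ⟨g, hg⟩ := isConj_of_sq_eq_one h2 hA hD hr.symm
  have hdet : A.det = D.det := by
    have := congrArg Matrix.det hg.eq
    rw [Matrix.det_mul, Matrix.det_mul, mul_comm] at this
    exact mul_right_cancel₀ (Matrix.isUnit_iff_isUnit_det _ |>.mp g.isUnit).ne_zero this
  rw [hdet, ← hS]
  simp only [D, Matrix.det_diagonal]
  rw [Finset.prod_ite]
  simp

end Mat

section Sp

variable {F : Type*} [Field F] {m : ℕ}

theorem sp_even_rank (h2 : (2 : F) ≠ 0) (g : Matrix.symplecticGroup (Fin m) F)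
    (hg : g.1 * g.1 = 1) : Even (g.1 - 1).rank := by
  have h := det_eq_of_sq_eq_one h2 hg
  rw [SymplecticGroup.det_eq_one g.2] at h
  by_contra hodd
  rw [Nat.not_even_iff_odd] at hodd
  rw [hodd.neg_one_pow] at h
  apply h2
  linear_combination h

theorem sp_rank_sub_eq (h2 : (2 : F) ≠ 0) (g : Matrix.symplecticGroup (Fin m) F)
    (hg : g.1 * g.1 = (-1 : F) • 1) {c : F} (hc : c * c = -1) :
    (g.1 - c • (1 : Matrix _ _ F)).rank = m := by
  have hc0 : c ≠ 0 := by rintro rfl; simp at hc
  have h1 := rank_sub_add_rank_add (A := g.1) h2 hc0 (by rw [hc]; exact hg)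
  have hJ := SymplecticGroup.mem_iff.mp g.2
  have hJu : IsUnit (Matrix.J (Fin m) F).det := Matrix.isUnit_det_J _ _
  have e : Matrix.J (Fin m) F * (g.1 - c • (1 : Matrix _ _ F))ᵀ =
      -(g.1 + c • (1 : Matrix _ _ F)) * Matrix.J (Fin m) F := by
    have : Matrix.J (Fin m) F * g.1ᵀ = -(g.1 * Matrix.J (Fin m) F) := by
      have h3 : g.1 * (g.1 * Matrix.J (Fin m) F * g.1ᵀ) = g.1 * Matrix.J (Fin m) F := by rw [hJ]
      rw [← Matrix.mul_assoc, ← Matrix.mul_assoc, hg] at h3
      rw [← h3]; simp
    rw [Matrix.transpose_sub, Matrix.mul_sub, this]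
    simp only [Matrix.transpose_smul, Matrix.transpose_one, Matrix.mul_smul, Matrix.mul_one,
      Matrix.neg_mul, Matrix.add_mul, Matrix.smul_mul, Matrix.one_mul]
    abel
  have h4 := congrArg Matrix.rank e
  rw [Matrix.rank_mul_eq_right_of_isUnit_det _ _ hJu,
    Matrix.rank_mul_eq_left_of_isUnit_det _ _ hJu, rank_neg', Matrix.rank_transpose] at h4
  simp only [Fintype.card_sum, Fintype.card_fin] at h1
  omega

variable [Fintype F]

theorem sp_isConj_of_pow_four (h2 : (2 : F) ≠ 0) (g h : Matrix.symplecticGroup (Fin m) F)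
    (hg : g ^ 4 = 1) (hc : IsConj g.1 h.1) : IsConj g h := by
  obtain ⟨p, hp⟩ := CharP.exists F
  haveI : Fact p.Prime := ⟨CharP.char_is_prime F p⟩
  refine (Cfsg.Agent.S2589.result (p := p) g h ?_).mpr hc
  apply Nat.Coprime.coprime_dvd_left (orderOf_dvd_of_pow_eq_one hg)
  have hp2 : p ≠ 2 := by
    rintro rfl
    exact h2 (by exact_mod_cast CharP.cast_eq_zero F 2)
  have : Nat.Coprime 2 p := (Nat.coprime_primes Nat.prime_two Fact.out).mpr hp2.symm
  simpa using this.pow_left 2

/-- An invariant that determines the class of an involution of `PSp_{2m}(q)`, `q` odd. -/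
theorem exists_psp_involution_invariant (h2 : (2 : F) ≠ 0) (hm : 1 ≤ m) :
    ∃ φ : Cfsg.PSp m F → ℕ, (∀ t, t * t = 1 → φ t ≤ m / 2) ∧
      ∀ s t, s * s = 1 → t * t = 1 → s ≠ 1 → t ≠ 1 → φ s = φ t → IsConj s t := by
  classical
  let neg : Matrix.symplecticGroup (Fin m) F → Matrix.symplecticGroup (Fin m) F :=
    fun g => ⟨-g.1, SymplecticGroup.neg_mem g.2⟩
  have hneg : ∀ g, (QuotientGroup.mk (neg g) : Cfsg.PSp m F) = QuotientGroup.mk g := by
    intro g
    rw [QuotientGroup.eq, H11.Sp.mem_center_iff]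
    refine ⟨-1, ?_⟩
    have h1 : (neg g).1 * ((neg g)⁻¹ * g).1 = g.1 := by
      rw [← Submonoid.coe_mul, mul_inv_cancel_left]
    have h3 : (g⁻¹).1 * g.1 = 1 := by rw [← Submonoid.coe_mul, inv_mul_cancel]; rfl
    have h4 : (g⁻¹).1 * ((neg g).1 * ((neg g)⁻¹ * g).1) = 1 := by rw [h1, h3]
    rw [← Matrix.mul_assoc] at h4
    simp only [neg, Matrix.mul_neg, h3, Matrix.neg_mul, Matrix.one_mul] at h4
    rw [neg_eq_iff_eq_neg] at h4
    simpa using h4
  have hsq : ∀ g : Matrix.symplecticGroup (Fin m) F,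
      (QuotientGroup.mk g : Cfsg.PSp m F) * QuotientGroup.mk g = 1 →
      g.1 * g.1 = 1 ∨ g.1 * g.1 = (-1 : F) • 1 := by
    intro g hg
    rw [← QuotientGroup.mk_mul, QuotientGroup.eq_one_iff, H11.Sp.mem_center_iff] at hg
    obtain ⟨a, ha⟩ := hg
    have h1 : a ^ 2 = 1 := (H11.Sp.smul_one_mem_iff hm).mp (ha ▸ (g * g).2)
    rw [Submonoid.coe_mul] at ha
    rcases sq_eq_one_iff.mp h1 with rfl | rfl
    · left; simpa using ha
    · right; exact ha
  let ψ : Matrix.symplecticGroup (Fin m) F → ℕ := fun g =>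
    if g.1 * g.1 = 1 then min (g.1 - 1).rank (g.1 + 1).rank / 2 else 0
  have hsum : ∀ g : Matrix.symplecticGroup (Fin m) F, g.1 * g.1 = 1 →
      (g.1 - 1).rank + (g.1 + 1).rank = m + m := by
    intro g hg
    have := rank_sub_add_rank_add (A := g.1) h2 one_ne_zero (by simpa using hg)
    simpa using this
  have hpos : ∀ g : Matrix.symplecticGroup (Fin m) F, g.1 * g.1 = 1 →
      (QuotientGroup.mk g : Cfsg.PSp m F) ≠ 1 → 0 < (g.1 - 1).rank ∧ 0 < (g.1 + 1).rank := by
    intro g hg h1
    have key : ∀ M : Matrix (Fin m ⊕ Fin m) (Fin m ⊕ Fin m) F, M.rank = 0 → M = 0 := by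
      intro M hM
      unfold Matrix.rank at hM
      rw [Submodule.finrank_eq_zero, LinearMap.range_eq_bot] at hM
      ext i j
      have := congrFun (LinearMap.congr_fun hM (Pi.single j 1)) i
      simpa using this
    constructor
    · by_contra h
      apply h1
      rw [QuotientGroup.eq_one_iff, H11.Sp.mem_center_iff]
      exact ⟨1, by simpa [sub_eq_zero] using key (g.1 - 1) (by omega)⟩
    · by_contra h
      apply h1
      rw [QuotientGroup.eq_one_iff, H11.Sp.mem_center_iff]
      exact ⟨-1, by simpa [add_eq_zero_iff_eq_neg] using key (g.1 + 1) (by omega)⟩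
  have hmk : ∀ g h : Matrix.symplecticGroup (Fin m) F, IsConj g h →
      IsConj (QuotientGroup.mk g : Cfsg.PSp m F) (QuotientGroup.mk h) :=
    fun g h c => (QuotientGroup.mk' _).map_isConj c
  have hfour : ∀ g : Matrix.symplecticGroup (Fin m) F,
      (g.1 * g.1 = 1 ∨ g.1 * g.1 = (-1 : F) • 1) → g ^ 4 = 1 := by
    intro g hg
    apply Subtype.ext
    have : (g ^ 4).1 = (g.1 * g.1) * (g.1 * g.1) := by
      rw [SubmonoidClass.coe_pow]; simp only [pow_succ, pow_zero, one_mul, mul_assoc]
    rw [this]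
    rcases hg with h | h <;> rw [h] <;> simp
  refine ⟨fun t => ψ t.out, fun t ht => ?_, fun s t hs ht hs1 ht1 hst => ?_⟩
  · simp only [ψ]
    split_ifs with h
    · have := hsum _ h
      omega
    · omega
  · rw [← QuotientGroup.out_eq' s] at hs hs1 ⊢
    rw [← QuotientGroup.out_eq' t] at ht ht1 ⊢
    simp only at hst
    generalize s.out = g at *
    generalize t.out = h at *
    have hne : ∀ g : Matrix.symplecticGroup (Fin m) F, g.1 * g.1 = (-1 : F) • 1 →
        g.1 * g.1 ≠ 1 := by
      intro g hg h1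
      rw [h1] at hg
      have := congrFun (congrFun hg (Sum.inl ⟨0, hm⟩)) (Sum.inl ⟨0, hm⟩)
      simp at this
      exact h2 (by linear_combination this)
    rcases hsq g hs with hg | hg <;> rcases hsq h ht with hh | hh
    · simp only [ψ, hg, hh, if_true] at hst
      have e1 := sp_even_rank h2 g hg
      have e2 := sp_even_rank h2 h hh
      have s1 := hsum g hg
      have s2 := hsum h hh
      obtain ⟨a, ha⟩ := e1
      obtain ⟨b, hb⟩ := e2
      by_cases hr : (g.1 - 1).rank = (h.1 - 1).rank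
      · exact hmk _ _ (sp_isConj_of_pow_four h2 g h (hfour g (Or.inl hg))
          (isConj_of_sq_eq_one h2 hg hh hr))
      · rw [← hneg h]
        refine hmk _ _ (sp_isConj_of_pow_four h2 g _ (hfour g (Or.inl hg))
          (isConj_of_sq_eq_one h2 hg (by simpa [neg] using hh) ?_))
        have : (neg h).1 - 1 = -(h.1 + 1) := by simp only [neg]; abel
        rw [this, rank_neg']
        omega
    · exfalso
      simp only [ψ, hg, hne h hh, if_true, if_false] at hst
      obtain ⟨a, ha⟩ := sp_even_rank h2 g hg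
      have s1 := hsum g hg
      have := hpos g hg hs1
      omega
    · exfalso
      simp only [ψ, hh, hne g hg, if_true, if_false] at hst
      obtain ⟨a, ha⟩ := sp_even_rank h2 h hh
      have s1 := hsum h hh
      have := hpos h hh ht1
      omega
    · refine hmk _ _ (sp_isConj_of_pow_four h2 g h (hfour g (Or.inr hg))
        (isConj_of_sq_eq hg hh fun c hc => ?_))
      rw [sp_rank_sub_eq h2 g hg hc, sp_rank_sub_eq h2 h hh hc]

end Sp

end H30
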